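import Cfsg.Agent.Lib.Helper90.Sp.Defs
import Cfsg.Agent.Lib.Helper91.Asch.C4Aux
import Cfsg.Agent.Lib.Helper96.Asch.L10
import Cfsg.Agent.Lib.Helper12.Asch.C3

set_option autoImplicit false

namespace Cfsg.Agent.Lib.Helper91.Sp

open Cfsg Cfsg.Geo Matrix Cfsg.Agent.Lib.Helper13.Asch Cfsg.Agent.Lib.Helper90.Sp
open Cfsg.Agent.Lib.Helper91.Asch
open scoped Kronecker MatrixGroups

variable {ι : Type} [Fintype ι] [DecidableEq ι] {F : Type*} [Field F]

/-- a scalar isometry of a nondegenerate bilinear form is `±1`. -/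
theorem scalar_isometry [Nonempty ι] {f : (ι → F) → (ι → F) → F} (hb : IsBilinearForm f)
    (hnd : IsNondegenerateForm f) {N : Subgroup (GL ι F)} (hN : FixesForm (matrixSet N) f)
    {x : GL ι F} (hx : x ∈ N) {c : F} (hc : (x : Matrix ι ι F) = c • 1) : c = 1 ∨ c = -1 := by
  obtain ⟨i⟩ := ‹Nonempty ι›
  have hv : (Pi.single i 1 : ι → F) ≠ 0 := by
    intro h
    have := congrFun h i
    simp at this
  obtain ⟨⟨u, hu⟩, -⟩ := hnd _ hv
  have h1 := hN (x : Matrix ι ι F) ⟨x, hx, rfl⟩ u (Pi.single i 1)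
  rw [hc, Matrix.smul_mulVec, Matrix.smul_mulVec, Matrix.one_mulVec, Matrix.one_mulVec,
    hb.smul_left, hb.smul_right] at h1
  have h2 : (c * c - 1) * f u (Pi.single i 1) = 0 := by linear_combination h1
  rcases mul_eq_zero.1 h2 with h | h
  · have h3 : (c - 1) * (c + 1) = 0 := by linear_combination h
    rcases mul_eq_zero.1 h3 with h | h
    · exact Or.inl (sub_eq_zero.1 h)
    · exact Or.inr (eq_neg_of_add_eq_zero_left h)
  · exact absurd h hu

theorem card_center_of_env {R : Subgroup (GL ι F)} (henv : env R = ⊤) :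
    Nat.card (Subgroup.center R) = Nat.card (R ⊓ scalars ι F : Subgroup (GL ι F)) := by
  have h1 : (Subgroup.center R).map R.subtype = R ⊓ scalars ι F := by
    ext x
    constructor
    · rintro ⟨y, hy, rfl⟩
      refine ⟨y.2, mem_scalars_of_commute henv _ ?_⟩
      intro w hw
      have h2 := (Subgroup.mem_center_iff.1 hy) ⟨w, hw⟩
      exact (congrArg Subtype.val h2).symm
    · rintro ⟨hx, c, rfl⟩
      refine ⟨⟨_, hx⟩, ?_, rfl⟩
      rw [SetLike.mem_coe, Subgroup.mem_center_iff]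
      intro w
      apply Subtype.ext
      exact (scHom_comm c w.1).symm
  rw [← h1]
  exact (Subgroup.card_map_of_injective R.subtype_injective).symm

/-- the basic structure of a class two group of isometries spanning all matrices. -/
theorem es_core [Finite F] (hι : 2 ≤ Fintype.card ι) {f : (ι → F) → (ι → F) → F}
    (hb : IsBilinearForm f) (hnd : IsNondegenerateForm f) {N : Subgroup (GL ι F)}
    (hN : FixesForm (matrixSet N) f) (henv : env N = ⊤)
    (hcomm : ∀ x ∈ N, ∀ y ∈ N, x * y * x⁻¹ * y⁻¹ ∈ scalars ι F) :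
    (2 : F) ≠ 0 ∧ scHom ι F (-1) ∈ N ∧ (∀ x ∈ N, x ^ 4 = 1) ∧
      N ⊓ scalars ι F = Subgroup.zpowers (scHom ι F (-1)) ∧
      Nat.card (N ⊓ scalars ι F : Subgroup (GL ι F)) = 2 := by
  have : Nonempty ι := Fintype.card_pos_iff.1 (by omega)
  have hpm : ∀ γ : Fˣ, scHom ι F γ ∈ N → γ = 1 ∨ γ = -1 := by
    intro γ hγ
    rcases scalar_isometry hb hnd hN hγ (scHom_coe γ) with h | h
    · exact Or.inl (Units.ext h)
    · exact Or.inr (Units.ext (by simpa using h))
  obtain ⟨x, hx, hxs⟩ := exists_not_scalar hι henv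
  obtain ⟨y, hy, hxy⟩ : ∃ y ∈ N, x * y ≠ y * x := by
    by_contra hcon
    push Not at hcon
    exact hxs (mem_scalars_of_commute henv x hcon)
  obtain ⟨γ, hγ⟩ := hcomm x hx y hy
  have hγ' : scHom ι F γ = x * y * x⁻¹ * y⁻¹ := hγ
  have hγN : scHom ι F γ ∈ N := by
    rw [hγ']
    exact N.mul_mem (N.mul_mem (N.mul_mem hx hy) (N.inv_mem hx)) (N.inv_mem hy)
  have hγ1 : γ ≠ 1 := by
    rintro rfl
    rw [map_one] at hγ'
    apply hxy
    calc x * y = (x * y * x⁻¹ * y⁻¹) * (y * x) := by group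
      _ = y * x := by rw [← hγ', one_mul]
  have hγm : γ = -1 := (hpm γ hγN).resolve_left hγ1
  have h2 : (2 : F) ≠ 0 := by
    intro h2
    apply hγ1
    rw [hγm]
    apply Units.ext
    simp only [Units.val_neg, Units.val_one]
    linear_combination -h2
  have hm1N : scHom ι F (-1) ∈ N := hγm ▸ hγN
  have hsq : ∀ s ∈ N ⊓ scalars ι F, s * s = 1 := by
    rintro _ ⟨hs, c, rfl⟩
    have hs' : scHom ι F c ∈ N := hs
    show scHom ι F c * scHom ι F c = 1
    rcases hpm c hs' with rfl | rfl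
    · simp
    · rw [← map_mul]; simp
  have hcen : ∀ s ∈ scalars ι F, ∀ g : GL ι F, s * g = g * s := by
    rintro _ ⟨c, rfl⟩ g
    exact scHom_comm c g
  have hx4 : ∀ x ∈ N, x ^ 4 = 1 := by
    intro x hx
    have h1 : x * x ∈ scalars ι F := by
      apply mem_scalars_of_commute henv
      intro y hy
      set s := x * y * x⁻¹ * y⁻¹ with hs
      have hsN : s ∈ N ⊓ scalars ι F :=
        ⟨N.mul_mem (N.mul_mem (N.mul_mem hx hy) (N.inv_mem hx)) (N.inv_mem hy), hcomm x hx y hy⟩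
      have e1 : x * y = s * (y * x) := by rw [hs]; group
      have e2 := hcen s hsN.2
      calc x * x * y = x * (x * y) := by group
        _ = x * (s * (y * x)) := by rw [e1]
        _ = (x * s) * (y * x) := by group
        _ = (s * x) * (y * x) := by rw [e2 x]
        _ = s * (x * y) * x := by group
        _ = s * (s * (y * x)) * x := by rw [e1]
        _ = (s * s) * (y * (x * x)) := by group
        _ = y * (x * x) := by rw [hsq s hsN, one_mul]
    have h3 := hsq (x * x) ⟨N.mul_mem hx hx, h1⟩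
    calc x ^ 4 = (x * x) * (x * x) := by
          rw [show (4 : ℕ) = 2 + 2 from rfl, pow_add, pow_two]
      _ = 1 := h3
  have hinf : N ⊓ scalars ι F = Subgroup.zpowers (scHom ι F (-1)) := by
    apply le_antisymm
    · rintro _ ⟨hs, c, rfl⟩
      have hs' : scHom ι F c ∈ N := hs
      show scHom ι F c ∈ _
      rcases hpm c hs' with rfl | rfl
      · rw [map_one]; exact Subgroup.one_mem _
      · exact Subgroup.mem_zpowers _
    · rw [Subgroup.zpowers_le]
      exact ⟨hm1N, scHom_mem_scalars _⟩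
  refine ⟨h2, hm1N, hx4, hinf, ?_⟩
  rw [hinf, Nat.card_zpowers]
  apply orderOf_eq_prime
  · rw [← map_pow]; simp
  · intro h
    have h3 : (-1 : Fˣ) = 1 := scHom_injective (ι := ι) (by rw [h, map_one])
    exact hγ1 (hγm.trans h3)

/-- H1 -/
theorem extraspecial_structure [Fintype F] (hι : 2 ≤ Fintype.card ι) {f : (ι → F) → (ι → F) → F}
    (hf : IsSymplecticForm f) {H N : Subgroup (GL ι F)} (hH : FixesForm (matrixSet H) f)
    (hQP : QP H) (hN : MinNormal H N) (henv : env N = ⊤) (hab : ⁅N, N⁆ ≤ scalars ι F) :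
    (2 : F) ≠ 0 ∧ IsSymplecticTypeGroup 2 N ∧ Nat.card (Subgroup.center N) = 2 ∧
      (∀ x ∈ N, ∀ y ∈ N, x * y * x⁻¹ * y⁻¹ ∈ scalars ι F) ∧
      (∀ c : Fˣ, (∃ x ∈ N, (x : Matrix ι ι F) = (c : F) • 1) → (c : F) = 1 ∨ (c : F) = -1) ∧
      ∃ k : ℕ, Fintype.card ι = 2 ^ k ∧ Nat.card N = 2 ^ (1 + 2 * k) := by
  classical
  have : Nonempty ι := Fintype.card_pos_iff.1 (by omega)
  have : Fact (Nat.Prime 2) := ⟨Nat.prime_two⟩
  have hNf : FixesForm (matrixSet N) f := by
    rintro _ ⟨x, hx, rfl⟩ u v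
    exact hH _ ⟨x, hN.le hx, rfl⟩ u v
  have hcomm : ∀ x ∈ N, ∀ y ∈ N, x * y * x⁻¹ * y⁻¹ ∈ scalars ι F := by
    intro x hx y hy
    have := hab (Subgroup.commutator_mem_commutator hx hy)
    rwa [commutatorElement_def] at this
  obtain ⟨h2, hm1, hx4, hinf, hcard2⟩ := es_core hι hf.bilinear hf.nondegenerate hNf henv hcomm
  have hnc := Cfsg.Agent.Lib.Helper12.Asch.not_comm_of_env_top hι henv
  have hp : IsPGroup 2 N := by
    intro x
    exact ⟨2, Subtype.ext (hx4 x.1 x.2)⟩
  refine ⟨h2, ⟨Nat.prime_two, hp, ?_, ?_⟩, by rw [card_center_of_env henv, hcard2], hcomm, ?_, ?_⟩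
  · intro A hA hAc
    let A' : Subgroup (GL ι F) := A.map N.subtype
    have hA'N : A' ≤ N := by
      rintro _ ⟨a, -, rfl⟩
      exact a.2
    have hA'n : Nrm H A' := by
      rintro g hg _ ⟨a, ha, rfl⟩
      have h1 : ∀ x ∈ N, g * x * g⁻¹ ∈ N := hN.nrm g hg
      have h2 : ∀ x ∈ N, g⁻¹ * x * g ∈ N := fun x hx => by
        have := hN.nrm g⁻¹ (H.inv_mem hg) x hx
        rwa [inv_inv] at this
      have h3 := (Subgroup.characteristic_iff_map_le.1 hA)
        (Cfsg.Agent.Lib.Helper12.Asch.conjOn N g h1 h2)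
      exact ⟨Cfsg.Agent.Lib.Helper12.Asch.conjOn N g h1 h2 a, h3 ⟨a, ha, rfl⟩, rfl⟩
    have hA'c : ∀ x ∈ A', ∀ y ∈ A', x * y = y * x := by
      rintro _ ⟨a, ha, rfl⟩ _ ⟨b, hb, rfl⟩
      have := hAc.is_comm.comm ⟨a, ha⟩ ⟨b, hb⟩
      exact congrArg (fun z : A => (z.1.1 : GL ι F)) this
    rcases hQP A' (hA'N.trans hN.le) hA'n with hle | htop
    · have hcyc : IsCyclic (scalars ι F) := Cfsg.Agent.Lib.Helper12.Asch.isCyclic_scalars
      let g : A →* scalars ι F := ((N.subtype).comp A.subtype).codRestrict (scalars ι F)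
        (fun a => hle ⟨a.1, a.2, rfl⟩)
      apply isCyclic_of_injective g
      intro a b hab
      have := congrArg Subtype.val hab
      exact Subtype.ext (Subtype.ext this)
    · exact absurd hA'c (Cfsg.Agent.Lib.Helper12.Asch.not_comm_of_env_top hι htop)
  · have hdvd : Monoid.exponent N ∣ 4 :=
      Monoid.exponent_dvd_of_forall_pow_eq_one (fun x => Subtype.ext (hx4 x.1 x.2))
    have hexp : ∀ x ∈ N, x ^ Monoid.exponent N = 1 := fun x hx =>
      congrArg Subtype.val (Monoid.pow_exponent_eq_one (⟨x, hx⟩ : N))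
    have hne1 : Monoid.exponent N ≠ 1 := by
      intro h1
      apply hnc
      intro x hx y hy
      have e1 := hexp x hx
      have e2 := hexp y hy
      rw [h1, pow_one] at e1 e2
      rw [e1, e2]
    have hne2 : Monoid.exponent N ≠ 2 := by
      intro h2
      apply hnc
      intro x hx y hy
      have e1 := hexp x hx
      have e2 := hexp y hy
      have e3 := hexp (x * y) (N.mul_mem hx hy)
      rw [h2] at e1 e2 e3
      have i1 : x⁻¹ = x := by rw [inv_eq_iff_mul_eq_one, ← pow_two, e1]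
      have i2 : y⁻¹ = y := by rw [inv_eq_iff_mul_eq_one, ← pow_two, e2]
      have i3 : (x * y)⁻¹ = x * y := by rw [inv_eq_iff_mul_eq_one, ← pow_two, e3]
      rw [← i3, _root_.mul_inv_rev, i1, i2]
    have hle : Monoid.exponent N ≤ 4 := Nat.le_of_dvd (by norm_num) hdvd
    show Monoid.exponent N = 4
    generalize Monoid.exponent N = e at *
    interval_cases e <;> simp_all
  · rintro c ⟨x, hx, hxc⟩
    exact scalar_isometry hf.bilinear hf.nondegenerate hNf hx hxc
  · have h1 := Cfsg.Agent.Lib.Helper96.Asch.card_eq_sq_mul N hcomm henv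
    rw [hcard2] at h1
    obtain ⟨j, hj⟩ := hp.exists_card_eq
    have h3 : Fintype.card ι ∣ 2 ^ j := by
      rw [← hj, h1, sq, mul_assoc]
      exact Dvd.intro _ rfl
    obtain ⟨k, -, hk⟩ := (Nat.dvd_prime_pow Nat.prime_two).1 h3
    refine ⟨k, hk, ?_⟩
    rw [h1, hk, ← pow_mul, pow_add, pow_one, mul_comm k 2, mul_comm]

end Cfsg.Agent.Lib.Helper91.Sp
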