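import Cfsg.Agent.Lib.Helper90.Sp.Defs
import Cfsg.Agent.Lib.Helper35.Asch.L8
import Cfsg.Agent.Lib.Helper55.Asch.FormCore

set_option autoImplicit false

/-! # Sp farm, piece H4: subfield class with a rational form structure -/

namespace Cfsg.Agent.Lib.Helper91.Sp

open Cfsg Cfsg.Geo Matrix Cfsg.Agent.Lib.Helper13.Asch Cfsg.Agent.Lib.Helper90.Sp
open scoped Kronecker MatrixGroups

variable {ι : Type} [Fintype ι] [DecidableEq ι] {F : Type*} [Field F]

/-- helper35's L8 with the endomorphism `σ` and the base change `B` made explicit -/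
theorem le_subfield_of_sigma (H N : Subgroup (GL ι F)) (hN : Nrm H N)
    (henv : env N = ⊤) (F₀ F₁ : Subfield F) (σ : F →+* F) (hσ0 : ∀ x ∈ F₀, σ x = x)
    (hσ1 : ∀ x, σ x = x → x ∈ F₁) (B : GL ι F)
    (hB : ∀ s ∈ matrixSet N, ∀ i j,
      ((B : Matrix ι ι F) * s * ((B⁻¹ : GL ι F) : Matrix ι ι F)) i j ∈ F₀) :
    H ≤ subfieldSubgroup F₁ B⁻¹ := by
  intro h hh
  by_cases hι : IsEmpty ι
  · have : h = 1 := by
      apply Units.ext
      ext i
      exact (hι.false i).elim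
    rw [this]; exact Subgroup.one_mem _
  rw [not_isEmpty_iff] at hι
  -- `σ` fixes the conjugates of `N`
  have hfix : ∀ s ∈ N, σ.mapMatrix ((B * s * B⁻¹ : GL ι F) : Matrix ι ι F) =
      ((B * s * B⁻¹ : GL ι F) : Matrix ι ι F) := by
    intro s hs
    ext i j
    rw [RingHom.mapMatrix_apply, Matrix.map_apply]
    apply hσ0
    have := hB (s : Matrix ι ι F) ⟨s, hs, rfl⟩ i j
    simpa [Units.val_mul] using this
  obtain ⟨h', hh'⟩ : ∃ h' : GL ι F, h' = B * h * B⁻¹ := ⟨_, rfl⟩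
  obtain ⟨T, hT⟩ : ∃ T : Matrix ι ι F, T = σ.mapMatrix (h' : Matrix ι ι F) := ⟨_, rfl⟩
  obtain ⟨T', hT'⟩ : ∃ T' : Matrix ι ι F, T' = σ.mapMatrix ((h'⁻¹ : GL ι F) : Matrix ι ι F) := ⟨_, rfl⟩
  have hTT' : T' * T = 1 := by
    rw [hT, hT', ← map_mul, ← Units.val_mul, inv_mul_cancel, Units.val_one, map_one]
  -- key commutation
  have hkey : ∀ s ∈ N, T * ((B * s * B⁻¹ : GL ι F) : Matrix ι ι F) =
      (h' : Matrix ι ι F) * ((B * s * B⁻¹ : GL ι F) : Matrix ι ι F) *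
        ((h'⁻¹ : GL ι F) : Matrix ι ι F) * T := by
    intro s hs
    have h1 := hfix (h * s * h⁻¹) (hN h hh s hs)
    have h2 : B * (h * s * h⁻¹) * B⁻¹ = h' * (B * s * B⁻¹) * h'⁻¹ := by rw [hh']; group
    rw [h2, Units.val_mul, Units.val_mul, map_mul, map_mul, hfix s hs, ← hT, ← hT'] at h1
    rw [← h1, mul_assoc (T * _) T' T, hTT', mul_one]
  obtain ⟨c, hc⟩ := Cfsg.Agent.Lib.Helper96.Asch.scalar_of_commute henv
    (((B⁻¹ * h'⁻¹ : GL ι F) : Matrix ι ι F) * T * (B : Matrix ι ι F)) (by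
    intro s hs
    have h1 := hkey s hs
    have e1 : (s : Matrix ι ι F) = ((B⁻¹ : GL ι F) : Matrix ι ι F) *
        ((B * s * B⁻¹ : GL ι F) : Matrix ι ι F) * (B : Matrix ι ι F) := by
      rw [← Units.val_mul, ← Units.val_mul]; congr 1; group
    have e2 : (B : Matrix ι ι F) * ((B⁻¹ : GL ι F) : Matrix ι ι F) = 1 := by
      rw [← Units.val_mul, mul_inv_cancel, Units.val_one]
    have e3 : ((h'⁻¹ : GL ι F) : Matrix ι ι F) * (h' : Matrix ι ι F) = 1 := by
      rw [← Units.val_mul, inv_mul_cancel, Units.val_one]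
    set S : Matrix ι ι F := ((B * s * B⁻¹ : GL ι F) : Matrix ι ι F) with hS
    rw [e1, Units.val_mul]
    calc ((B⁻¹ : GL ι F) : Matrix ι ι F) * ((h'⁻¹ : GL ι F) : Matrix ι ι F) * T * (B : Matrix ι ι F) *
          (((B⁻¹ : GL ι F) : Matrix ι ι F) * S * (B : Matrix ι ι F))
        = ((B⁻¹ : GL ι F) : Matrix ι ι F) * ((h'⁻¹ : GL ι F) : Matrix ι ι F) * T *
          ((B : Matrix ι ι F) * ((B⁻¹ : GL ι F) : Matrix ι ι F)) * S * (B : Matrix ι ι F) := by
          simp only [mul_assoc]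
      _ = ((B⁻¹ : GL ι F) : Matrix ι ι F) * ((h'⁻¹ : GL ι F) : Matrix ι ι F) * (T * S) *
          (B : Matrix ι ι F) := by rw [e2, mul_one]; simp only [mul_assoc]
      _ = ((B⁻¹ : GL ι F) : Matrix ι ι F) * (((h'⁻¹ : GL ι F) : Matrix ι ι F) * (h' : Matrix ι ι F)) * S *
          ((h'⁻¹ : GL ι F) : Matrix ι ι F) * T * (B : Matrix ι ι F) := by rw [h1]; simp only [mul_assoc]
      _ = ((B⁻¹ : GL ι F) : Matrix ι ι F) * S * ((B : Matrix ι ι F) * ((B⁻¹ : GL ι F) : Matrix ι ι F)) *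
          ((h'⁻¹ : GL ι F) : Matrix ι ι F) * T * (B : Matrix ι ι F) := by rw [e3, e2, mul_one, mul_one]
      _ = _ := by simp only [mul_assoc])
  have hTc : T = c • (h' : Matrix ι ι F) := by
    have e2 : (B : Matrix ι ι F) * ((B⁻¹ : GL ι F) : Matrix ι ι F) = 1 := by
      rw [← Units.val_mul, mul_inv_cancel, Units.val_one]
    have e4 : (h' : Matrix ι ι F) * ((h'⁻¹ : GL ι F) : Matrix ι ι F) = 1 := by
      rw [← Units.val_mul, mul_inv_cancel, Units.val_one]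
    calc T = ((h' : Matrix ι ι F) * ((h'⁻¹ : GL ι F) : Matrix ι ι F)) * T := by rw [e4, one_mul]
      _ = (h' : Matrix ι ι F) * (((B : Matrix ι ι F) * ((B⁻¹ : GL ι F) : Matrix ι ι F)) *
          ((h'⁻¹ : GL ι F) : Matrix ι ι F) * T * ((B : Matrix ι ι F) * ((B⁻¹ : GL ι F) : Matrix ι ι F))) := by
          rw [e2, one_mul, mul_one, mul_assoc]
      _ = (h' : Matrix ι ι F) * ((B : Matrix ι ι F) * (((B⁻¹ * h'⁻¹ : GL ι F) : Matrix ι ι F) * T *
          (B : Matrix ι ι F)) * ((B⁻¹ : GL ι F) : Matrix ι ι F)) := by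
          rw [Units.val_mul]; simp only [mul_assoc]
      _ = _ := by
          rw [hc, Matrix.mul_smul, mul_one, Matrix.smul_mul, e2, Matrix.mul_smul, mul_one]
  -- a nonzero entry
  obtain ⟨i, j, hij⟩ : ∃ i j, (h' : Matrix ι ι F) i j ≠ 0 := by
    by_contra hcon
    push Not at hcon
    have h0 : (h' : Matrix ι ι F) = 0 := by ext i j; exact hcon i j
    have e4 : (h' : Matrix ι ι F) * ((h'⁻¹ : GL ι F) : Matrix ι ι F) = 1 := by
      rw [← Units.val_mul, mul_inv_cancel, Units.val_one]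
    rw [h0, zero_mul] at e4
    obtain ⟨i⟩ := hι
    have := congrFun (congrFun e4 i) i
    simp at this
  set ν : F := (h' : Matrix ι ι F) i j with hν
  have hσν : σ ν = c * ν := by
    have := congrFun (congrFun hTc i) j
    rw [hT, RingHom.mapMatrix_apply, Matrix.map_apply, Matrix.smul_apply, smul_eq_mul] at this
    exact this
  have hc0 : c ≠ 0 := by
    rintro rfl
    rw [zero_mul] at hσν
    exact hij ((map_eq_zero σ).mp hσν)
  set Y : Matrix ι ι F := ν⁻¹ • (h' : Matrix ι ι F) with hY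
  have hYmem : ∀ k l, Y k l ∈ F₁ := by
    intro k l
    apply hσ1
    have h1 := congrFun (congrFun hTc k) l
    rw [hT, RingHom.mapMatrix_apply, Matrix.map_apply, Matrix.smul_apply, smul_eq_mul] at h1
    rw [hY, Matrix.smul_apply, smul_eq_mul, map_mul, map_inv₀, hσν, h1]
    field_simp
  let A₁ : Matrix ι ι F₁ := Matrix.of fun k l => ⟨Y k l, hYmem k l⟩
  have hA₁ : A₁.map F₁.subtype = Y := by
    ext k l; rfl
  have hdet : A₁.det ≠ 0 := by
    intro h0
    have h1 : F₁.subtype A₁.det = Y.det := by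
      rw [RingHom.map_det, RingHom.mapMatrix_apply, hA₁]
    rw [h0, map_zero, hY, Matrix.det_smul] at h1
    have h2 : (h' : Matrix ι ι F).det ≠ 0 := by
      have := (Matrix.GeneralLinearGroup.det h').ne_zero
      simpa using this
    exact (mul_ne_zero (pow_ne_zero _ (inv_ne_zero hij)) h2) h1.symm
  let g₁ : GL ι F₁ := Matrix.GeneralLinearGroup.mkOfDetNeZero A₁ hdet
  let sc : GL ι F := Units.map (Matrix.scalar ι : F →+* Matrix ι ι F).toMonoidHom (Units.mk0 ν hij)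
  have hprod : h' = Matrix.GeneralLinearGroup.map (F₁.subtype : F₁ →+* F) g₁ * sc := by
    apply Units.ext
    rw [Units.val_mul]
    have h1 : ((Matrix.GeneralLinearGroup.map (F₁.subtype : F₁ →+* F) g₁ : GL ι F) : Matrix ι ι F) = Y := hA₁
    have h2 : (sc : Matrix ι ι F) = Matrix.scalar ι ν := rfl
    rw [h1, h2, hY]
    ext k l
    simp [Matrix.mul_apply, Matrix.diagonal_apply]
    field_simp
  refine ⟨h', ?_, ?_⟩
  · rw [hprod]
    exact Subgroup.mul_mem _ (Subgroup.mem_sup_left ⟨g₁, rfl⟩) (Subgroup.mem_sup_right ⟨_, rfl⟩)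
  · change B⁻¹ * h' * B⁻¹⁻¹ = h
    rw [hh']; group


/-- the form part -/
theorem form_rational_of_sigma {f : (ι → F) → (ι → F) → F} (hb : IsBilinearForm f)
    (hnd : IsNondegenerateForm f) (N : Subgroup (GL ι F))
    (henv : env N = ⊤) (hfix : FixesForm (matrixSet N) f) (F₀ F₁ : Subfield F) (σ : F →+* F)
    (hσ0 : ∀ x ∈ F₀, σ x = x)
    (hσ1 : ∀ x, σ x = x → x ∈ F₁) (B : GL ι F)
    (hB : ∀ s ∈ matrixSet N, ∀ i j,
      ((B : Matrix ι ι F) * s * ((B⁻¹ : GL ι F) : Matrix ι ι F)) i j ∈ F₀) :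
    ∃ ζ : F, ζ ≠ 0 ∧ IsFormRationalStructure f F₁ ζ B⁻¹ := by
  by_cases hι : IsEmpty ι
  · refine ⟨1, one_ne_zero, ?_⟩
    intro u v _ _
    have hu : ((B⁻¹ : GL ι F) : Matrix ι ι F) *ᵥ u = (0 : F) • (0 : ι → F) := by
      ext i; exact (hι.false i).elim
    rw [hu, hb.smul_left, zero_mul, mul_zero]
    exact F₁.zero_mem
  rw [not_isEmpty_iff] at hι
  have hE : ∀ u v, f u v = gform (RingHom.id F) (Cfsg.Agent.Lib.Helper55.Asch.gram f) u v :=
    Cfsg.Agent.Lib.Helper55.Asch.eq_gform (RingHom.id F) f hb.add_left hb.smul_left hb.add_right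
      hb.smul_right
  obtain ⟨G, hGdef⟩ : ∃ G, G = Cfsg.Agent.Lib.Helper55.Asch.gram f := ⟨_, rfl⟩
  rw [← hGdef] at hE
  have hG : IsUnit G.det := by
    apply Cfsg.Agent.Lib.Helper55.Asch.isUnit_det_of_nondeg (RingEquiv.refl F)
    intro v hv
    obtain ⟨x, hx⟩ := (hnd v hv).1
    refine ⟨x, ?_⟩
    rw [hE] at hx
    exact hx
  have hinv : ∀ x ∈ N, (x : Matrix ι ι F)ᵀ * G * (x : Matrix ι ι F) = G := by
    intro x hx
    apply Cfsg.Agent.Lib.Helper55.Asch.gform_ext (RingHom.id F)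
    intro u v
    have h1 := Cfsg.Agent.Lib.Helper55.Asch.gform_mulVec (RingHom.id F) G (x : Matrix ι ι F) u v
    have h2 : (x : Matrix ι ι F).map (RingHom.id F) = (x : Matrix ι ι F) := by
      ext i j; rfl
    rw [h2] at h1
    rw [← h1, ← hE, ← hE]
    exact hfix _ ⟨x, hx, rfl⟩ u v
  obtain ⟨P, hP⟩ : ∃ P : Matrix ι ι F, P = ((B⁻¹ : GL ι F) : Matrix ι ι F) := ⟨_, rfl⟩
  obtain ⟨Bm, hBm⟩ : ∃ Bm : Matrix ι ι F, Bm = (B : Matrix ι ι F) := ⟨_, rfl⟩
  have hBP : Bm * P = 1 := by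
    rw [hBm, hP, ← Units.val_mul, mul_inv_cancel, Units.val_one]
  have hPB : P * Bm = 1 := by
    rw [hBm, hP, ← Units.val_mul, inv_mul_cancel, Units.val_one]
  obtain ⟨G', hG'⟩ : ∃ G' : Matrix ι ι F, G' = Pᵀ * G * P := ⟨_, rfl⟩
  -- the conjugates are fixed by `σ`
  have hfixσ : ∀ x ∈ N, (Bm * (x : Matrix ι ι F) * P).map σ = Bm * (x : Matrix ι ι F) * P := by
    intro x hx
    ext i j
    rw [Matrix.map_apply]
    apply hσ0
    rw [hBm, hP]
    exact hB _ ⟨x, hx, rfl⟩ i j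
  -- invariance of `G'`
  have hinv' : ∀ x ∈ N, (Bm * (x : Matrix ι ι F) * P)ᵀ * G' * (Bm * (x : Matrix ι ι F) * P) = G' := by
    intro x hx
    rw [hG']
    calc (Bm * (x : Matrix ι ι F) * P)ᵀ * (Pᵀ * G * P) * (Bm * (x : Matrix ι ι F) * P)
        = Pᵀ * (x : Matrix ι ι F)ᵀ * (P * Bm)ᵀ * G * (P * Bm) * (x : Matrix ι ι F) * P := by
          simp only [Matrix.transpose_mul, Matrix.mul_assoc]
      _ = Pᵀ * ((x : Matrix ι ι F)ᵀ * G * (x : Matrix ι ι F)) * P := by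
          rw [hPB, Matrix.transpose_one]
          simp only [Matrix.mul_one, Matrix.mul_assoc]
      _ = _ := by rw [hinv x hx]
  have hinvσ : ∀ x ∈ N, (Bm * (x : Matrix ι ι F) * P)ᵀ * G'.map σ * (Bm * (x : Matrix ι ι F) * P)
      = G'.map σ := by
    intro x hx
    obtain ⟨X, hX⟩ : ∃ X : Matrix ι ι F, X = Bm * (x : Matrix ι ι F) * P := ⟨_, rfl⟩
    have h0 := hinv' x hx
    have hf := hfixσ x hx
    rw [← hX] at h0 hf ⊢
    have h1 := congrArg (fun M : Matrix ι ι F => M.map σ) h0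
    simp only [Matrix.map_mul] at h1
    rw [Matrix.transpose_map, hf] at h1
    exact h1
  obtain ⟨c, hc⟩ := Cfsg.Agent.Lib.Helper55.Asch.gram_unique henv (RingHom.id F) G
    (Bmᵀ * G'.map σ * Bm) hG
    (by
      intro x hx
      have h2 : (x : Matrix ι ι F).map (RingHom.id F) = (x : Matrix ι ι F) := by
        ext i j; rfl
      rw [h2]; exact hinv x hx)
    (by
      intro x hx
      have h2 : (x : Matrix ι ι F).map (RingHom.id F) = (x : Matrix ι ι F) := by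
        ext i j; rfl
      rw [h2]
      calc (x : Matrix ι ι F)ᵀ * (Bmᵀ * G'.map σ * Bm) * (x : Matrix ι ι F)
          = (P * Bm)ᵀ * (x : Matrix ι ι F)ᵀ * Bmᵀ * G'.map σ * Bm * (x : Matrix ι ι F) * (P * Bm) := by
            rw [hPB, Matrix.transpose_one]
            simp only [Matrix.mul_one, Matrix.one_mul, Matrix.mul_assoc]
        _ = Bmᵀ * ((Bm * (x : Matrix ι ι F) * P)ᵀ * G'.map σ * (Bm * (x : Matrix ι ι F) * P)) * Bm := by
            simp only [Matrix.transpose_mul, Matrix.mul_assoc]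
        _ = _ := by rw [hinvσ x hx])
  have hcG : G'.map σ = c • G' := by
    calc G'.map σ = (Bm * P)ᵀ * G'.map σ * (Bm * P) := by
          rw [hBP, Matrix.transpose_one, Matrix.one_mul, Matrix.mul_one]
      _ = Pᵀ * (Bmᵀ * G'.map σ * Bm) * P := by
          simp only [Matrix.transpose_mul, Matrix.mul_assoc]
      _ = _ := by rw [hc, hG', Matrix.mul_smul, Matrix.smul_mul]
  have hG'det : G'.det ≠ 0 := by
    rw [hG', Matrix.det_mul, Matrix.det_mul, Matrix.det_transpose]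
    have hPd : P.det ≠ 0 := by
      intro h0
      have := congrArg Matrix.det hBP
      rw [Matrix.det_mul, h0, mul_zero, Matrix.det_one] at this
      exact zero_ne_one this
    exact mul_ne_zero (mul_ne_zero hPd hG.ne_zero) hPd
  obtain ⟨i, j, hij⟩ : ∃ i j, G' i j ≠ 0 := by
    by_contra hcon
    push Not at hcon
    have h0 : G' = 0 := by ext i j; exact hcon i j
    rw [h0, Matrix.det_zero] at hG'det
    exact hG'det rfl
  obtain ⟨ν, hν⟩ : ∃ ν : F, ν = G' i j := ⟨_, rfl⟩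
  rw [← hν] at hij
  have hσν : σ ν = c * ν := by
    have := congrFun (congrFun hcG i) j
    rw [Matrix.map_apply, Matrix.smul_apply, smul_eq_mul, ← hν] at this
    exact this
  have hc0 : c ≠ 0 := by
    rintro rfl
    rw [zero_mul] at hσν
    exact hij ((map_eq_zero σ).mp hσν)
  have hYmem : ∀ k l, ν⁻¹ * G' k l ∈ F₁ := by
    intro k l
    apply hσ1
    have h1 := congrFun (congrFun hcG k) l
    rw [Matrix.map_apply, Matrix.smul_apply, smul_eq_mul] at h1
    rw [map_mul, map_inv₀, hσν, h1]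
    field_simp
  refine ⟨ν⁻¹, inv_ne_zero hij, ?_⟩
  intro u v hu hv
  rw [← hP, hE, Cfsg.Agent.Lib.Helper55.Asch.gform_mulVec]
  have h2 : P.map (RingHom.id F) = P := by
    ext i j; rfl
  rw [h2, ← hG', ← Cfsg.Agent.Lib.Helper55.Asch.gform_smul]
  simp only [gform, dotProduct, Matrix.mulVec, Matrix.smul_apply, smul_eq_mul, RingHom.id_apply]
  refine F₁.sum_mem fun k _ => F₁.mul_mem (hu k) (F₁.sum_mem fun l _ => F₁.mul_mem (hYmem k l) (hv l))

/-- H4 -/
theorem sp_subfield [Fintype F] {f : (ι → F) → (ι → F) → F} (hb : IsBilinearForm f)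
    (hnd : IsNondegenerateForm f) (H N : Subgroup (GL ι F)) (hN : Nrm H N) (henv : env N = ⊤)
    (hfix : FixesForm (matrixSet N) f) (F₀ : Subfield F) (hF₀ : F₀ ≠ ⊤)
    (hr : RealisableOver F₀ (matrixSet N)) :
    ∃ (F₁ : Subfield F) (r : ℕ) (P : GL ι F) (ζ : F), r.Prime ∧
      Fintype.card F = Nat.card F₁ ^ r ∧ ζ ≠ 0 ∧ IsFormRationalStructure f F₁ ζ P ∧
      H ≤ subfieldSubgroup F₁ P := by
  obtain ⟨F₁, r, σ, hrp, hcard, hσ0, hσ1⟩ := Cfsg.Agent.Lib.Helper35.Asch.exists_sigma F₀ hF₀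
  obtain ⟨B, hB⟩ := hr
  obtain ⟨ζ, hζ, hform⟩ := form_rational_of_sigma hb hnd N henv hfix F₀ F₁ σ hσ0 hσ1 B hB
  exact ⟨F₁, r, B⁻¹, ζ, hrp, hcard, hζ, hform,
    le_subfield_of_sigma H N hN henv F₀ F₁ σ hσ0 hσ1 B hB⟩

end Cfsg.Agent.Lib.Helper91.Sp
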