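import Cfsg.Agent.Lib.Helper91.Sp.H2core
import Cfsg.Agent.Lib.Helper96.Asch.L0c
import Cfsg.Agent.Lib.Helper2.Sp.SB
import Cfsg.Agent.Lib.Helper2.Sp.SCa

set_option autoImplicit false

/-! # Sp farm, piece H2: an extraspecial group fixing a symplectic form has minus type -/

namespace Cfsg.Agent.Lib.Helper91.Sp

open Cfsg Cfsg.Geo Matrix Cfsg.Agent.Lib.Helper13.Asch Cfsg.Agent.Lib.Helper90.Sp
open scoped Kronecker MatrixGroups

variable {ι : Type} [Fintype ι] [DecidableEq ι] {F : Type*} [Field F]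

/-- H2 -/
theorem minus_type [Fintype F] (h2 : (2 : F) ≠ 0) {f : (ι → F) → (ι → F) → F}
    (hf : IsSymplecticForm f) {N : Subgroup (GL ι F)} (hN : FixesForm (matrixSet N) f)
    (henv : env N = ⊤) (hcomm : ∀ x ∈ N, ∀ y ∈ N, x * y * x⁻¹ * y⁻¹ ∈ scalars ι F) {k : ℕ}
    (hk : Fintype.card ι = 2 ^ k) : IsOfMinusType k N := by
  have hirr : ActsIrreducibly (matrixSet N) :=
    (Cfsg.Agent.Lib.Helper96.Asch.absIrr_of_env_top henv).1
  exact minus_type_core h2 hf hN henv hcomm hk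
    (fun Z hZ hc => Cfsg.Agent.Lib.Helper2.Sp.exists_idempotents N hirr Z hZ hc)
    (fun t ht e hinj hidem hne horth hsum hperm hsa =>
      Cfsg.Agent.Lib.Helper2.Sp.sp_of_selfadjoint_idempotents hf hN hirr ht e hinj hidem hne horth
        hsum hperm hsa)

end Cfsg.Agent.Lib.Helper91.Sp
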