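import Cfsg.Agent.Lib.Helper90.Sp.Defs
import Cfsg.Agent.Lib.Helper96.Asch.L12a

set_option autoImplicit false

namespace Cfsg.Agent.Lib.Helper91.Sp

open Cfsg Cfsg.Geo Matrix Cfsg.Agent.Lib.Helper13.Asch Cfsg.Agent.Lib.Helper90.Sp
open scoped Kronecker MatrixGroups

variable {ι : Type} [Fintype ι] [DecidableEq ι] {F : Type*} [Field F]

theorem entry_formula' (A B : Matrix ι ι F) (i j k l : ι) :
    (A * Matrix.single i j (1 : F) * B) k l = A k i * B j l := by
  have := Cfsg.Agent.Lib.Helper96.Asch.entry_formula Aᵀ B i j k l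
  rwa [Matrix.transpose_transpose, Matrix.transpose_apply] at this

/-- H3 -/
theorem exists_twist [Finite F] [Nonempty ι] (R : Subgroup (GL ι F))
    (hcomm : ∀ x ∈ R, ∀ y ∈ R, x * y * x⁻¹ * y⁻¹ ∈ scalars ι F) (henv : env R = ⊤)
    (hchar : (Nat.card R : F) ≠ 0) (σ : F ≃+* F)
    (hσ : ∀ c : Fˣ, (∃ x ∈ R, (x : Matrix ι ι F) = (c : F) • 1) → σ c = c) :
    ∃ C : GL ι F, ∀ x ∈ R, (x : Matrix ι ι F).map σ =
      (C : Matrix ι ι F) * (x : Matrix ι ι F) * ((C⁻¹ : GL ι F) : Matrix ι ι F) := by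
  classical
  have hfin : Finite (GL ι F) := inferInstance
  have : Fintype R := Fintype.ofFinite _
  let L : Matrix ι ι F → Matrix ι ι F := fun M =>
    ∑ x : R, ((x : GL ι F) : Matrix ι ι F).map σ * M * (((x : GL ι F)⁻¹ : GL ι F) : Matrix ι ι F)
  have hL : ∀ M, ∀ y ∈ R, (y : Matrix ι ι F).map σ * L M = L M * (y : Matrix ι ι F) := by
    intro M y hy
    show (y : Matrix ι ι F).map σ * (∑ x : R, _) = (∑ x : R, _) * (y : Matrix ι ι F)
    rw [Finset.mul_sum, Finset.sum_mul]
    refine Fintype.sum_equiv (Equiv.mulLeft (⟨y, hy⟩ : R)) _ _ ?_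
    intro x
    have h1 : (((y * (x : GL ι F))⁻¹ : GL ι F) : Matrix ι ι F) * (y : Matrix ι ι F) =
        (((x : GL ι F)⁻¹ : GL ι F) : Matrix ι ι F) := by
      rw [← Units.val_mul]
      congr 1
      group
    simp only [Equiv.coe_mulLeft, Subgroup.coe_mul, Units.val_mul, Matrix.map_mul]
    rw [Matrix.mul_assoc _ _ (y : Matrix ι ι F), h1]
    simp only [Matrix.mul_assoc]
  have hsum : ∑ x : R, σ (Matrix.trace ((x : GL ι F) : Matrix ι ι F)) *
      Matrix.trace (((x : GL ι F)⁻¹ : GL ι F) : Matrix ι ι F) = (Nat.card R : F) := by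
    have h1 : ∀ x : R, σ (Matrix.trace ((x : GL ι F) : Matrix ι ι F)) *
        Matrix.trace (((x : GL ι F)⁻¹ : GL ι F) : Matrix ι ι F)
        = if x ∈ (scalars ι F).subgroupOf R then ((Fintype.card ι : F)) ^ 2 else 0 := by
      intro x
      split_ifs with hx
      · obtain ⟨c, hc⟩ := (mem_scalars_iff _).1 (Subgroup.mem_subgroupOf.1 hx)
        have h2 := hσ c ⟨x, x.2, hc⟩
        have h3 : (((x : GL ι F)⁻¹ : GL ι F) : Matrix ι ι F) = ((c⁻¹ : Fˣ) : F) • 1 := by
          apply Units.inv_eq_of_mul_eq_one_right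
          rw [hc]
          simp [smul_smul]
        rw [hc, h3, Matrix.trace_smul, Matrix.trace_smul, Matrix.trace_one, smul_eq_mul,
          smul_eq_mul, map_mul, map_natCast, h2]
        calc (c : F) * (Fintype.card ι : F) * (((c⁻¹ : Fˣ) : F) * (Fintype.card ι : F))
            = ((c : F) * ((c⁻¹ : Fˣ) : F)) * (Fintype.card ι : F) ^ 2 := by ring
          _ = (Fintype.card ι : F) ^ 2 := by rw [Units.mul_inv, one_mul]
      · rw [Cfsg.Agent.Lib.Helper96.Asch.trace_eq_zero_of_not_scalar R hcomm henv x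
          (fun h => hx (Subgroup.mem_subgroupOf.2 h)), map_zero, zero_mul]
    rw [Finset.sum_congr rfl (fun x _ => h1 x), Finset.sum_ite, Finset.sum_const_zero, add_zero,
      Finset.sum_const, Cfsg.Agent.Lib.Helper96.Asch.card_eq_sq_mul R hcomm henv, nsmul_eq_mul]
    have h3 : (Finset.univ.filter (fun x : R => x ∈ (scalars ι F).subgroupOf R)).card
        = Nat.card (R ⊓ scalars ι F : Subgroup (GL ι F)) := by
      rw [← Fintype.card_subtype, ← Nat.card_eq_fintype_card]
      have h4 : (scalars ι F).subgroupOf R = (R ⊓ scalars ι F).subgroupOf R :=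
        (Subgroup.inf_subgroupOf_left _ _).symm
      rw [h4]
      exact Nat.card_congr (Subgroup.subgroupOfEquivOfLe inf_le_left).toEquiv
    rw [h3]
    push_cast
    ring
  obtain ⟨i, j, hij⟩ : ∃ i j, L (Matrix.single i j 1) ≠ 0 := by
    by_contra hcon
    push Not at hcon
    apply hchar
    rw [← hsum]
    have h1 : ∀ i j, ∑ x : R, σ (((x : GL ι F) : Matrix ι ι F) i i) *
        (((x : GL ι F)⁻¹ : GL ι F) : Matrix ι ι F) j j = 0 := by
      intro i j
      have h2 := congrFun (congrFun (hcon i j) i) j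
      simp only [L, Matrix.sum_apply, entry_formula', Matrix.map_apply, Matrix.zero_apply] at h2
      exact h2
    simp only [Matrix.trace, Matrix.diag_apply, map_sum, Finset.sum_mul_sum]
    rw [Finset.sum_comm]
    apply Finset.sum_eq_zero
    intro i _
    rw [Finset.sum_comm]
    apply Finset.sum_eq_zero
    intro j _
    exact h1 i j
  set G := L (Matrix.single i j 1) with hG
  have hGinv := hL (Matrix.single i j 1)
  rw [← hG] at hGinv
  have hW := (Cfsg.Agent.Lib.Helper96.Asch.absIrr_of_env_top henv).1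
    (LinearMap.ker (Matrix.toLin' G)) (by
    rintro _ ⟨x, hx, rfl⟩ _ ⟨u, hu, rfl⟩
    rw [SetLike.mem_coe, LinearMap.mem_ker, Matrix.toLin'_apply] at hu
    rw [LinearMap.mem_ker, Matrix.toLin'_apply, Matrix.toLin'_apply, Matrix.mulVec_mulVec,
      ← hGinv x hx, ← Matrix.mulVec_mulVec, hu, Matrix.mulVec_zero])
  have hdet : G.det ≠ 0 := by
    intro hdet
    obtain ⟨v, hv0, hv⟩ := Matrix.exists_mulVec_eq_zero_iff.2 hdet
    have hvW : v ∈ LinearMap.ker (Matrix.toLin' G) := by
      rw [LinearMap.mem_ker, Matrix.toLin'_apply]; exact hv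
    rcases hW with h | h
    · rw [h, Submodule.mem_bot] at hvW
      exact hv0 hvW
    · apply hij
      have h1 : Matrix.toLin' G = 0 := LinearMap.ker_eq_top.1 h
      apply Matrix.toLin'.injective
      rw [h1, map_zero]
  refine ⟨Matrix.GeneralLinearGroup.mkOfDetNeZero G hdet, ?_⟩
  intro x hx
  set C := Matrix.GeneralLinearGroup.mkOfDetNeZero G hdet with hC
  have hCG : (C : Matrix ι ι F) = G := rfl
  rw [hCG, ← hGinv x hx, Matrix.mul_assoc, ← hCG, Units.mul_inv, Matrix.mul_one]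

end Cfsg.Agent.Lib.Helper91.Sp
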