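import Cfsg.Agent.Lib.Helper90.Sp.Defs
import Cfsg.Agent.Lib.Helper91.Sp.H1
import Cfsg.Agent.Lib.Helper96.Asch.L0e
import Cfsg.Agent.Lib.Helper96.Asch.L12a
import Cfsg.Agent.Lib.Helper55.Asch.DecCore

set_option autoImplicit false

/-! # Sp farm, piece H2 (core): an extraspecial group fixing a symplectic form has minus type -/

namespace Cfsg.Agent.Lib.Helper91.Sp

open Cfsg Cfsg.Geo Matrix Cfsg.Agent.Lib.Helper13.Asch Cfsg.Agent.Lib.Helper90.Sp
open scoped Kronecker MatrixGroups

variable {ι : Type} [Fintype ι] [DecidableEq ι] {F : Type*} [Field F]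

/-- membership in `env` by span induction -/
theorem env_induction (A : Subgroup (GL ι F)) (p : Matrix ι ι F → Prop)
    (hmem : ∀ a ∈ A, p (a : Matrix ι ι F)) (h0 : p 0) (hadd : ∀ x y, p x → p y → p (x + y))
    (hsmul : ∀ (c : F) x, p x → p (c • x)) : ∀ x ∈ env A, p x := by
  intro x hx
  have hx' : x ∈ Submodule.span F (matrixSet A) := by
    rw [← Cfsg.Agent.Lib.Helper96.Asch.env_eq_span]
    exact hx
  clear hx
  induction hx' using Submodule.span_induction with
  | mem y hy => obtain ⟨a, ha, rfl⟩ := hy; exact hmem a ha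
  | zero => exact h0
  | add y z _ _ hy hz => exact hadd y z hy hz
  | smul c y _ hy => exact hsmul c y hy

theorem coe_mem_env {A : Subgroup (GL ι F)} {a : GL ι F} (ha : a ∈ A) :
    (a : Matrix ι ι F) ∈ env A := Algebra.subset_adjoin ⟨a, ha, rfl⟩

/-- the enveloping algebra of a commutative group is commutative -/
theorem env_comm {A : Subgroup (GL ι F)} (hc : ∀ a ∈ A, ∀ b ∈ A, a * b = b * a) :
    ∀ x ∈ env A, ∀ y ∈ env A, x * y = y * x := by
  intro x hx
  refine env_induction A (fun y => x * y = y * x) ?_ (by simp) ?_ ?_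
  · intro b hb
    revert x
    refine env_induction A (fun x => x * (b : Matrix ι ι F) = (b : Matrix ι ι F) * x) ?_ (by simp)
      ?_ ?_
    · intro a ha
      rw [← Units.val_mul, ← Units.val_mul, hc a ha b hb]
    · intro x y hx hy
      rw [add_mul, mul_add, hx, hy]
    · intro c x hx
      rw [Matrix.smul_mul, Matrix.mul_smul, hx]
  · intro y z hy hz
    rw [add_mul, mul_add, hy, hz]
  · intro c y hy
    rw [Matrix.smul_mul, Matrix.mul_smul, hy]

/-- the enveloping algebra of a group of isometric involutions is self-adjoint -/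
theorem env_selfadjoint {f : (ι → F) → (ι → F) → F} (hb : IsBilinearForm f)
    {A : Subgroup (GL ι F)} (hA : FixesForm (matrixSet A) f) (h2 : ∀ a ∈ A, a * a = 1) :
    ∀ x ∈ env A, ∀ u v, f (x *ᵥ u) v = f u (x *ᵥ v) := by
  have zl : ∀ v, f 0 v = 0 := fun v => by simpa using hb.smul_left 0 0 v
  have zr : ∀ v, f v 0 = 0 := fun v => by simpa using hb.smul_right 0 v 0
  refine env_induction A (fun x => ∀ u v, f (x *ᵥ u) v = f u (x *ᵥ v)) ?_ ?_ ?_ ?_
  · intro a ha u v
    have h1 := hA _ ⟨a, ha, rfl⟩ u ((a : Matrix ι ι F) *ᵥ v)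
    rw [Matrix.mulVec_mulVec, ← Units.val_mul, h2 a ha, Units.val_one, Matrix.one_mulVec] at h1
    exact h1
  · intro u v
    rw [Matrix.zero_mulVec, Matrix.zero_mulVec, zl, zr]
  · intro x y hx hy u v
    rw [Matrix.add_mulVec, Matrix.add_mulVec, hb.add_left, hb.add_right, hx, hy]
  · intro c x hx u v
    rw [Matrix.smul_mulVec, Matrix.smul_mulVec, hb.smul_left, hb.smul_right, hx]

/-- `N` normalises the enveloping algebra of any subgroup, when commutators are scalar -/
theorem le_normalizer_env {N A : Subgroup (GL ι F)} (hAN : A ≤ N)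
    (hcomm : ∀ x ∈ N, ∀ y ∈ N, x * y * x⁻¹ * y⁻¹ ∈ scalars ι F) :
    N ≤ subalgebraNormalizer (env A) := by
  have key : ∀ y ∈ N, ∀ x ∈ env A,
      (y : Matrix ι ι F) * x * ((y⁻¹ : GL ι F) : Matrix ι ι F) ∈ env A := by
    intro y hy
    refine env_induction A
      (fun x => (y : Matrix ι ι F) * x * ((y⁻¹ : GL ι F) : Matrix ι ι F) ∈ env A) ?_ ?_ ?_ ?_
    · intro a ha
      obtain ⟨c, hc⟩ := (mem_scalars_iff _).1 (hcomm y hy a (hAN ha))
      have h1 : y * a * y⁻¹ = (y * a * y⁻¹ * a⁻¹) * a := by group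
      rw [← Units.val_mul, ← Units.val_mul, h1, Units.val_mul, hc, Matrix.smul_mul, Matrix.one_mul]
      exact (env A).smul_mem (coe_mem_env ha) _
    · simp
    · intro x z hx hz
      rw [mul_add, add_mul]
      exact (env A).add_mem hx hz
    · intro c x hx
      rw [Matrix.mul_smul, Matrix.smul_mul]
      exact (env A).smul_mem hx _
  intro y hy x
  constructor
  · exact key y hy x
  · intro h
    have h1 := key y⁻¹ (N.inv_mem hy) _ h
    rw [inv_inv] at h1
    have e1 : ((y⁻¹ : GL ι F) : Matrix ι ι F) * (y : Matrix ι ι F) = 1 := by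
      rw [← Units.val_mul, inv_mul_cancel, Units.val_one]
    have h2 : ((y⁻¹ : GL ι F) : Matrix ι ι F) *
        ((y : Matrix ι ι F) * x * ((y⁻¹ : GL ι F) : Matrix ι ι F)) * (y : Matrix ι ι F) = x := by
      calc _ = (((y⁻¹ : GL ι F) : Matrix ι ι F) * (y : Matrix ι ι F)) * x *
            (((y⁻¹ : GL ι F) : Matrix ι ι F) * (y : Matrix ι ι F)) := by
            simp only [Matrix.mul_assoc]
        _ = x := by rw [e1, Matrix.one_mul, Matrix.mul_one]
    rwa [h2] at h1

/-- conjugation by an element of the normaliser preserves primitive idempotents -/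
theorem isPrimIdem_conj {Z : Subalgebra F (Matrix ι ι F)} {h : GL ι F}
    (hh : h ∈ subalgebraNormalizer Z) {x : Matrix ι ι F} (hx : IsPrimIdem Z x) :
    IsPrimIdem Z ((h : Matrix ι ι F) * x * ((h⁻¹ : GL ι F) : Matrix ι ι F)) := by
  obtain ⟨hxZ, hxx, hx0, hmin⟩ := hx
  have e1 : ((h⁻¹ : GL ι F) : Matrix ι ι F) * (h : Matrix ι ι F) = 1 := by
    rw [← Units.val_mul, inv_mul_cancel, Units.val_one]
  have e2 : (h : Matrix ι ι F) * ((h⁻¹ : GL ι F) : Matrix ι ι F) = 1 := by
    rw [← Units.val_mul, mul_inv_cancel, Units.val_one]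
  obtain ⟨a, ha⟩ : ∃ a : Matrix ι ι F, a = (h : Matrix ι ι F) := ⟨_, rfl⟩
  obtain ⟨b, hb⟩ : ∃ b : Matrix ι ι F, b = ((h⁻¹ : GL ι F) : Matrix ι ι F) := ⟨_, rfl⟩
  have hinv : ∀ y ∈ Z, b * y * a ∈ Z := by
    intro y hy
    have h1 := ((subalgebraNormalizer Z).inv_mem hh y).1 hy
    rw [inv_inv] at h1
    rw [ha, hb]; exact h1
  have hfw := (hh x).1 hxZ
  rw [← ha, ← hb] at e1 e2 hfw ⊢
  refine ⟨hfw, ?_, ?_, ?_⟩
  · calc a * x * b * (a * x * b) = a * x * (b * a) * x * b := by simp only [Matrix.mul_assoc]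
      _ = a * (x * x) * b := by rw [e1, Matrix.mul_one]; simp only [Matrix.mul_assoc]
      _ = _ := by rw [hxx]
  · intro h0
    apply hx0
    calc x = (b * a) * x * (b * a) := by rw [e1, Matrix.one_mul, Matrix.mul_one]
      _ = b * (a * x * b) * a := by simp only [Matrix.mul_assoc]
      _ = 0 := by rw [h0, Matrix.mul_zero, Matrix.zero_mul]
  · intro y hy hyy hxy
    have back : ∀ w : Matrix ι ι F, a * (b * w * a) * b = w := by
      intro w
      calc a * (b * w * a) * b = (a * b) * w * (a * b) := by simp only [Matrix.mul_assoc]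
        _ = w := by rw [e2, Matrix.one_mul, Matrix.mul_one]
    rcases hmin (b * y * a) (hinv y hy)
      (by
        calc b * y * a * (b * y * a) = b * y * (a * b) * y * a := by simp only [Matrix.mul_assoc]
          _ = b * (y * y) * a := by rw [e2, Matrix.mul_one]; simp only [Matrix.mul_assoc]
          _ = _ := by rw [hyy])
      (by
        calc x * (b * y * a) = (b * a) * x * (b * y * a) := by rw [e1, Matrix.one_mul]
          _ = b * ((a * x * b) * y) * a := by simp only [Matrix.mul_assoc]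
          _ = _ := by rw [hxy]) with h0 | h0
    · left
      rw [← back y, h0, Matrix.mul_zero, Matrix.zero_mul]
    · right
      rw [← back y, h0]

/-- representatives of the cosets of the scalars in a subgroup of `N` are linearly independent -/
theorem card_quot_le_finrank [Nonempty ι] {N A : Subgroup (GL ι F)} (hAN : A ≤ N)
    (hcomm : ∀ x ∈ N, ∀ y ∈ N, x * y * x⁻¹ * y⁻¹ ∈ scalars ι F) (henv : env N = ⊤)
    (hn : (Fintype.card ι : F) ≠ 0) [Finite A] (W : Submodule F (Matrix ι ι F))
    (hW : ∀ a ∈ A, (a : Matrix ι ι F) ∈ W) :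
    Nat.card (A ⧸ (scalars ι F).subgroupOf A) ≤ Module.finrank F W := by
  classical
  have : Fintype (A ⧸ (scalars ι F).subgroupOf A) := Fintype.ofFinite _
  have hLI : LinearIndependent F (fun q : A ⧸ (scalars ι F).subgroupOf A =>
      (((Quotient.out q : A) : GL ι F) : Matrix ι ι F)) := by
    rw [Fintype.linearIndependent_iff]
    intro g hg j
    have h1 := congrArg (fun M : Matrix ι ι F =>
      Matrix.trace (((((Quotient.out j : A) : GL ι F)⁻¹ : GL ι F) : Matrix ι ι F) * M)) hg
    simp only [Finset.mul_sum, Matrix.mul_smul, Matrix.trace_sum, Matrix.trace_smul, mul_zero,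
      Matrix.trace_zero, smul_eq_mul] at h1
    rw [Finset.sum_eq_single j] at h1
    · rw [← Units.val_mul, inv_mul_cancel, Units.val_one, Matrix.trace_one] at h1
      rcases mul_eq_zero.1 h1 with h | h
      · exact h
      · exact absurd h hn
    · intro q _ hqj
      rw [← Units.val_mul]
      have hmem : ((Quotient.out j : A) : GL ι F)⁻¹ * ((Quotient.out q : A) : GL ι F) ∈ N :=
        N.mul_mem (N.inv_mem (hAN (Quotient.out j : A).2)) (hAN (Quotient.out q : A).2)
      have hns : ((Quotient.out j : A) : GL ι F)⁻¹ * ((Quotient.out q : A) : GL ι F) ∉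
          scalars ι F := by
        intro hs
        apply hqj
        have h3 : (Quotient.out j : A)⁻¹ * (Quotient.out q : A) ∈ (scalars ι F).subgroupOf A := by
          rw [Subgroup.mem_subgroupOf]; exact hs
        have h4 := QuotientGroup.eq.2 h3
        rw [QuotientGroup.out_eq', QuotientGroup.out_eq'] at h4
        exact h4.symm
      have h5 := Cfsg.Agent.Lib.Helper96.Asch.trace_eq_zero_of_not_scalar N hcomm henv ⟨_, hmem⟩ hns
      rw [h5, mul_zero]
    · intro h; exact absurd (Finset.mem_univ j) h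
  have h1 := finrank_span_eq_card hLI
  rw [Nat.card_eq_fintype_card, ← h1]
  apply Submodule.finrank_mono
  rw [Submodule.span_le]
  rintro _ ⟨q, rfl⟩
  exact hW _ (Quotient.out q : A).2

/-- H2 with the pieces SB and SCa as hypotheses -/
theorem minus_type_core [Fintype F] (h2 : (2 : F) ≠ 0) {f : (ι → F) → (ι → F) → F}
    (hf : IsSymplecticForm f) {N : Subgroup (GL ι F)} (hN : FixesForm (matrixSet N) f)
    (henv : env N = ⊤) (hcomm : ∀ x ∈ N, ∀ y ∈ N, x * y * x⁻¹ * y⁻¹ ∈ scalars ι F) {k : ℕ}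
    (hk : Fintype.card ι = 2 ^ k)
    (hSB : ∀ Z : Subalgebra F (Matrix ι ι F), N ≤ subalgebraNormalizer Z →
      (∀ x ∈ Z, ∀ y ∈ Z, x * y = y * x) →
      (∀ x ∈ Z, x ≠ 0 → ∃ y ∈ Z, x * y = 1) ∨
      ∃ (t : ℕ) (e : Fin t → Matrix ι ι F), 2 ≤ t ∧ Function.Injective e ∧
        (∀ i, IsPrimIdem Z (e i)) ∧ (∀ x, IsPrimIdem Z x → ∃ i, x = e i) ∧
        (∀ i j, i ≠ j → e i * e j = 0) ∧ ∑ i, e i = 1)
    (hSCa : ∀ (t : ℕ) (_ : 2 ≤ t) (e : Fin t → Matrix ι ι F),
      Function.Injective e → (∀ i, e i * e i = e i) → (∀ i, e i ≠ 0) →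
      (∀ i j, i ≠ j → e i * e j = 0) → ∑ i, e i = 1 →
      (∀ h ∈ N, ∀ i, ∃ j, (h : Matrix ι ι F) * e i * ((h⁻¹ : GL ι F) : Matrix ι ι F) = e j) →
      (∀ i u v, f (e i *ᵥ u) v = f u (e i *ᵥ v)) →
      ∃ (k : ℕ) (D : Fin t → Submodule F (ι → F)), IsNondegenerateMDecomposition f k D ∧
        N ≤ decompositionStabilizer D ∧ ∀ i, D i = LinearMap.range (Matrix.toLin' (e i))) :
    IsOfMinusType k N := by
  classical
  intro A₀ hA₀c hA₀2
  have hne : Nonempty ι := Fintype.card_pos_iff.1 (by rw [hk]; positivity)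
  -- `k ≥ 1`
  have hk1 : 1 ≤ k := by
    by_contra hcon
    have hk0 : k = 0 := by omega
    rw [hk0, pow_zero, Fintype.card_eq_one_iff] at hk
    obtain ⟨i, hi⟩ := hk
    have hv : (Pi.single i 1 : ι → F) ≠ 0 := by
      intro h
      have := congrFun h i
      simp at this
    obtain ⟨⟨x, hx⟩, -⟩ := hf.nondegenerate _ hv
    apply hx
    have hx' : x = x i • (Pi.single i 1 : ι → F) := by
      ext j
      rw [hi j]; simp
    rw [hx', hf.bilinear.smul_left, hf.alternating, mul_zero]
  have hι2 : 2 ≤ Fintype.card ι := by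
    rw [hk]
    calc 2 = 2 ^ 1 := by norm_num
      _ ≤ 2 ^ k := Nat.pow_le_pow_right (by norm_num) hk1
  obtain ⟨-, -, -, -, hZ2⟩ := es_core hι2 hf.bilinear hf.nondegenerate hN henv hcomm
  -- the image of `A₀` in `GL`
  obtain ⟨A, hA⟩ : ∃ A : Subgroup (GL ι F), A = A₀.map N.subtype := ⟨_, rfl⟩
  have hcard : Nat.card A = Nat.card A₀ := by
    rw [hA]
    exact Subgroup.card_map_of_injective N.subtype_injective
  have hAN : A ≤ N := by
    rw [hA]
    rintro _ ⟨a, _, rfl⟩
    exact a.2
  have hA2 : ∀ a ∈ A, a * a = 1 := by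
    rw [hA]
    rintro _ ⟨a, ha, rfl⟩
    exact congrArg Subtype.val (hA₀2 a ha)
  have hAc : ∀ a ∈ A, ∀ b ∈ A, a * b = b * a := by
    rw [hA]
    rintro _ ⟨a, ha, rfl⟩ _ ⟨b, hb, rfl⟩
    have h1 := hA₀c.is_comm.comm ⟨a, ha⟩ ⟨b, hb⟩
    exact congrArg (fun z : A₀ => ((z : N) : GL ι F)) h1
  rw [← hcard]
  have hAfix : FixesForm (matrixSet A) f := by
    rintro _ ⟨a, ha, rfl⟩ u v
    exact hN _ ⟨a, hAN ha, rfl⟩ u v
  have hZc := env_comm hAc
  have hZsa := env_selfadjoint hf.bilinear hAfix hA2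
  have hZn := le_normalizer_env hAN hcomm
  -- the scalar part has at most two elements
  have hK : Nat.card ((scalars ι F).subgroupOf A) ≤ 2 := by
    rw [← hZ2, ← Subgroup.inf_subgroupOf_left,
      Nat.card_congr (Subgroup.subgroupOfEquivOfLe (inf_le_left : A ⊓ scalars ι F ≤ A)).toEquiv]
    exact Subgroup.card_le_of_le (inf_le_inf_right _ hAN)
  have hn0 : (Fintype.card ι : F) ≠ 0 := by
    rw [hk]; push_cast; exact pow_ne_zero _ h2
  have hprod := Subgroup.card_eq_card_quotient_mul_card_subgroup ((scalars ι F).subgroupOf A)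
  have hpow : 2 ^ (k + 1) = 2 * 2 ^ k := by rw [pow_succ]; ring
  have hkpos : 0 < 2 ^ k := by positivity
  rcases hSB (env A) hZn hZc with hfield | ⟨t, e, ht, hinj, hprim, hall, horth, hsum⟩
  · -- the field case: every element of `A` is `±1`
    have hle : A ≤ N ⊓ scalars ι F := by
      intro a ha
      refine ⟨hAN ha, ?_⟩
      show a ∈ scalars ι F
      by_cases h1 : (a : Matrix ι ι F) - 1 = 0
      · have : a = 1 := Units.ext (by rw [Units.val_one]; exact sub_eq_zero.1 h1)
        rw [this]; exact Subgroup.one_mem _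
      · obtain ⟨y, -, hy⟩ := hfield _ ((env A).sub_mem (coe_mem_env ha) (env A).one_mem) h1
        have h3 : ((a : Matrix ι ι F) + 1) * ((a : Matrix ι ι F) - 1) = 0 := by
          have h4 : (a : Matrix ι ι F) * (a : Matrix ι ι F) = 1 := by
            rw [← Units.val_mul, hA2 a ha, Units.val_one]
          rw [add_mul, mul_sub, mul_sub, h4]
          simp
        have h5 : (a : Matrix ι ι F) + 1 = 0 := by
          calc (a : Matrix ι ι F) + 1 = ((a : Matrix ι ι F) + 1) * (((a : Matrix ι ι F) - 1) * y) := by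
                rw [hy, mul_one]
            _ = 0 := by rw [← mul_assoc, h3, zero_mul]
        rw [mem_scalars_iff]
        refine ⟨-1, ?_⟩
        rw [eq_neg_of_add_eq_zero_left h5]
        simp
    have h3 := Subgroup.card_le_of_le hle
    rw [hZ2] at h3
    have : 2 ≤ 2 ^ k := by rw [← hk]; exact hι2
    omega
  · -- the idempotent case
    obtain ⟨k', D, hD, -, -⟩ := hSCa t ht e hinj (fun i => (hprim i).2.1) (fun i => (hprim i).2.2.1)
      horth hsum
      (fun h hh i => by
        obtain ⟨j, hj⟩ := hall _ (isPrimIdem_conj (hZn hh) (hprim i))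
        exact ⟨j, hj⟩)
      (fun i u v => hZsa _ (hprim i).1 u v)
    have htk : t * k' = 2 ^ k := by
      rw [← hk]; exact Cfsg.Agent.Lib.Helper55.Asch.card_of_decomp D hD.decomp
    have hk'2 : 2 ≤ k' := by
      by_contra hcon
      have hk'1 : k' = 1 := by have := hD.decomp.pos; omega
      have h1 := hD.decomp.finrank_eq ⟨0, by omega⟩
      rw [hk'1, finrank_eq_one_iff'] at h1
      obtain ⟨w, hw0, hw⟩ := h1
      have hw0' : (w : ι → F) ≠ 0 := fun h => hw0 (Subtype.ext h)
      obtain ⟨⟨x, hx, hfx⟩, -⟩ := hD.nondegenerate ⟨0, by omega⟩ w w.2 hw0'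
      obtain ⟨c, hc⟩ := hw ⟨x, hx⟩
      apply hfx
      have hc' : x = c • (w : ι → F) := (congrArg Subtype.val hc).symm
      rw [hc', hf.bilinear.smul_left, hf.alternating, mul_zero]
    -- every element of `A` lies in the span of the idempotents
    have hsign : ∀ a ∈ A, ∀ i, e i * (a : Matrix ι ι F) = e i ∨ e i * (a : Matrix ι ι F) = - e i := by
      intro a ha i
      have h4 : (a : Matrix ι ι F) * (a : Matrix ι ι F) = 1 := by
        rw [← Units.val_mul, hA2 a ha, Units.val_one]
      obtain ⟨ε, hε⟩ : ∃ ε : Matrix ι ι F, ε = (2 : F)⁻¹ • (1 + (a : Matrix ι ι F)) := ⟨_, rfl⟩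
      have hεZ : ε ∈ env A := by
        rw [hε]
        exact (env A).smul_mem ((env A).add_mem (env A).one_mem (coe_mem_env ha)) _
      have hεε : ε * ε = ε := by
        rw [hε, Matrix.smul_mul, Matrix.mul_smul, smul_smul, add_mul, mul_add, mul_add, h4, one_mul,
          one_mul, mul_one]
        have : (1 + (a : Matrix ι ι F) + ((a : Matrix ι ι F) + 1)) = (2 : F) • (1 + (a : Matrix ι ι F)) := by
          rw [two_smul]; abel
        rw [this, smul_smul]
        congr 1
        field_simp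
      have hcomm' : e i * ε = ε * e i := hZc _ (hprim i).1 _ hεZ
      have h2ε : (2 : F) • ε = 1 + (a : Matrix ι ι F) := by
        rw [hε, smul_smul, mul_inv_cancel₀ h2, one_smul]
      have hea : e i * (a : Matrix ι ι F) = (2 : F) • (e i * ε) - e i := by
        rw [← Matrix.mul_smul, h2ε, mul_add, mul_one]; abel
      rcases (hprim i).2.2.2 (e i * ε) ((env A).mul_mem (hprim i).1 hεZ)
        (by
          calc e i * ε * (e i * ε) = e i * (ε * e i) * ε := by simp only [Matrix.mul_assoc]
            _ = (e i * e i) * (ε * ε) := by rw [← hcomm']; simp only [Matrix.mul_assoc]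
            _ = _ := by rw [(hprim i).2.1, hεε])
        (by rw [← Matrix.mul_assoc, (hprim i).2.1]) with h0 | h0
      · right
        rw [hea, h0, smul_zero, zero_sub]
      · left
        rw [hea, h0, two_smul]; abel
    have hW : ∀ a ∈ A, (a : Matrix ι ι F) ∈ Submodule.span F (Set.range e) := by
      intro a ha
      have h1 : (a : Matrix ι ι F) = ∑ i, e i * (a : Matrix ι ι F) := by
        rw [← Finset.sum_mul, hsum, one_mul]
      rw [h1]
      refine Submodule.sum_mem _ fun i _ => ?_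
      rcases hsign a ha i with h | h
      · rw [h]; exact Submodule.subset_span ⟨i, rfl⟩
      · rw [h]; exact Submodule.neg_mem _ (Submodule.subset_span ⟨i, rfl⟩)
    have h5 := card_quot_le_finrank hAN hcomm henv hn0 _ hW
    have h6 : Module.finrank F (Submodule.span F (Set.range e)) ≤ t := by
      have := finrank_range_le_card (R := F) e
      rwa [Fintype.card_fin] at this
    have h7 : Nat.card A ≤ t * 2 := by
      rw [hprod]
      exact Nat.mul_le_mul (h5.trans h6) hK
    have h8 : t * 2 ≤ t * k' := Nat.mul_le_mul_left t hk'2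
    omega

end Cfsg.Agent.Lib.Helper91.Sp
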